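import Cfsg.Agent.Lib.Helper65.Sp.TensTools
import Cfsg.Agent.Lib.Helper99.Sp.T1

set_option autoImplicit false

namespace Cfsg.Agent.Lib.Helper65.Sp

open Cfsg Cfsg.Geo Matrix Cfsg.Agent.Lib.Helper13.Asch Cfsg.Agent.Lib.Helper90.Sp
open scoped Kronecker MatrixGroups

variable {ι : Type} [Fintype ι] [DecidableEq ι] {F : Type*} [Field F]

theorem kron_mulVec_row {a b : ℕ} (x : Matrix (Fin a) (Fin a) F) (y : Matrix (Fin b) (Fin b) F)
    (X : Fin a × Fin b → F) (i : Fin a) :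
    (fun j => ((x ⊗ₖ y) *ᵥ X) (i, j)) = ∑ k, x i k • (y *ᵥ fun l => X (k, l)) := by
  ext j
  simp only [mulVec, dotProduct, Fintype.sum_prod_type, kroneckerMap_apply, Finset.sum_apply,
    Pi.smul_apply, smul_eq_mul, Finset.mul_sum, mul_assoc]

/-- T4a -/
theorem diag_zero_of_irr [Fintype F] [Nonempty ι] (h2 : (2 : F) = 0) {f : (ι → F) → (ι → F) → F}
    {H : Subgroup (GL ι F)} (hH : FixesForm (matrixSet H) f)
    (hirr : ActsIrreducibly (matrixSet H)) {a b : ℕ} (hb : 2 ≤ b) (e : ι ≃ Fin a × Fin b)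
    (P : GL ι F) {G₁ : Matrix (Fin a) (Fin a) F} {G₂ : Matrix (Fin b) (Fin b) F}
    (hG : TensGram f e P G₁ G₂) (h1 : IsUnit G₁.det) (h2' : IsUnit G₂.det) (hs2 : G₂ᵀ = G₂)
    (hHt : H ≤ tensorProductSubgroup a b e P) : ∀ j, G₂ j j = 0 := by
  by_contra hcon
  push Not at hcon
  obtain ⟨j0, hj0⟩ := hcon
  obtain ⟨ψ, hψ⟩ : ∃ ψ : (Fin b → F) → F, ∀ y, ψ y = y ⬝ᵥ (G₂ *ᵥ y) := ⟨_, fun _ => rfl⟩
  have hψadd : ∀ y z, ψ (y + z) = ψ y + ψ z := by
    intro y z
    rw [hψ, hψ, hψ, Matrix.mulVec_add, add_dotProduct, dotProduct_add, dotProduct_add,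
      dot_transpose G₂ y z, hs2]
    linear_combination (y ⬝ᵥ G₂ *ᵥ z) * h2
  have hψsmul : ∀ (c : F) y, ψ (c • y) = c ^ 2 * ψ y := by
    intro c y
    rw [hψ, hψ, Matrix.mulVec_smul, smul_dotProduct, dotProduct_smul, smul_eq_mul, smul_eq_mul]
    ring
  have hψsingle : ∀ j, ψ (Pi.single j 1) = G₂ j j := by
    intro j
    rw [hψ]
    simp
  let U₂ : Submodule F (Fin b → F) :=
    { carrier := {y | ψ y = 0}
      add_mem' := by
        intro y z hy hz
        show ψ (y + z) = 0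
        rw [hψadd, show ψ y = 0 from hy, show ψ z = 0 from hz, add_zero]
      zero_mem' := by
        show ψ 0 = 0
        rw [hψ]; simp
      smul_mem' := by
        intro c y hy
        show ψ (c • y) = 0
        rw [hψsmul, show ψ y = 0 from hy, mul_zero] }
  have hU : ∀ y, y ∈ U₂ ↔ ψ y = 0 := fun _ => Iff.rfl
  -- a non-zero singular vector
  haveI : Nontrivial (Fin b) := Fin.nontrivial_iff_two_le.mpr hb
  obtain ⟨j1, hj1⟩ := exists_ne j0
  haveI : CharP F 2 := CharTwo.of_one_ne_zero_of_two_eq_zero one_ne_zero h2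
  obtain ⟨t, ht⟩ := FiniteField.isSquare_of_char_two (ringChar.eq F 2) (G₂ j1 j1 / G₂ j0 j0)
  obtain ⟨y₀, hy₀, hy₀1⟩ : ∃ y₀ : Fin b → F, ψ y₀ = 0 ∧ y₀ j1 = 1 := by
    refine ⟨Pi.single j1 1 + t • Pi.single j0 1, ?_, ?_⟩
    · rw [hψadd, hψsmul, hψsingle, hψsingle, pow_two, ← ht, div_mul_cancel₀ _ hj0]
      linear_combination (G₂ j1 j1) * h2
    · simp [hj1]
  -- the invariant subspace
  let W : Submodule F (ι → F) :=
    { carrier := {v | ∀ i, (fun j => co e P v (i, j)) ∈ U₂}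
      add_mem' := by
        intro u v hu hv i
        rw [co_add]
        exact U₂.add_mem (hu i) (hv i)
      zero_mem' := by
        intro i
        have : co e P (0 : ι → F) = 0 := by
          have := co_smul e P (0 : F) (0 : ι → F)
          simpa using this
        rw [this]
        exact U₂.zero_mem
      smul_mem' := by
        intro c v hv i
        rw [co_smul]
        exact U₂.smul_mem c (hv i) }
  have hW : ∀ v, v ∈ W ↔ ∀ i, (fun j => co e P v (i, j)) ∈ U₂ := fun _ => Iff.rfl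
  have hinv : ∀ s ∈ matrixSet H, W.map (Matrix.toLin' s) ≤ W := by
    rintro _ ⟨h, hh, rfl⟩ _ ⟨v, hv, rfl⟩
    obtain ⟨x, y, c, hxy, -, hy⟩ := Cfsg.Agent.Lib.Helper99.Sp.tens_similitude e P hG h1 h2' h
      (hHt hh) (hH _ ⟨h, hh, rfl⟩)
    rw [Matrix.toLin'_apply, hW]
    intro i
    show (fun j => co e P ((h : Matrix ι ι F) *ᵥ v) (i, j)) ∈ U₂
    rw [hxy, co_conj, kron_mulVec_row]
    refine U₂.sum_mem fun k _ => U₂.smul_mem _ ?_
    rw [hU, hψ, dot_mulVec_mulVec, hy, Matrix.smul_mulVec, dotProduct_smul, ← hψ,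
      (hU _).mp ((hW v).mp hv k), smul_zero]
  obtain ⟨i₀⟩ : Nonempty (Fin a) := ⟨(e (Classical.arbitrary ι)).1⟩
  rcases hirr W hinv with hbot | htop
  · -- `W` is not zero
    let x₁ : Fin a × Fin b → F := fun p => if p.1 = i₀ then y₀ p.2 else 0
    have hmem : (P : Matrix ι ι F) *ᵥ (x₁ ∘ e) ∈ W := by
      rw [hW]
      intro i
      rw [co_mulVec_comp]
      by_cases hi : i = i₀
      · have : (fun j => x₁ (i, j)) = y₀ := by
          ext j; simp [x₁, hi]
        rw [this, hU]; exact hy₀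
      · have : (fun j => x₁ (i, j)) = 0 := by
          ext j; simp [x₁, hi]
        rw [this]; exact U₂.zero_mem
    rw [hbot, Submodule.mem_bot] at hmem
    have h0 := co_mulVec_comp e P x₁
    rw [hmem] at h0
    have hz : co e P (0 : ι → F) = 0 := by
      have := co_smul e P (0 : F) (0 : ι → F)
      simpa using this
    rw [hz] at h0
    have := congrFun h0 (i₀, j1)
    simp [x₁, hy₀1] at this
  · -- `W` is not everything
    let x₂ : Fin a × Fin b → F := fun p => if p.1 = i₀ then (Pi.single j0 1 : Fin b → F) p.2 else 0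
    have hmem : (P : Matrix ι ι F) *ᵥ (x₂ ∘ e) ∈ W := by rw [htop]; trivial
    rw [hW] at hmem
    have h0 := hmem i₀
    rw [co_mulVec_comp] at h0
    have : (fun j => x₂ (i₀, j)) = Pi.single j0 1 := by
      ext j; simp [x₂]
    rw [this, hU, hψsingle] at h0
    exact hj0 h0

end Cfsg.Agent.Lib.Helper65.Sp
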