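import Cfsg.Agent.Lib.Helper90.Sp.Defs

set_option autoImplicit false

namespace Cfsg.Agent.Lib.Helper65.Sp

open Cfsg Cfsg.Geo Matrix Cfsg.Agent.Lib.Helper13.Asch Cfsg.Agent.Lib.Helper90.Sp
open scoped Kronecker MatrixGroups

variable {ι : Type} [Fintype ι] [DecidableEq ι] {F : Type*} [Field F]

/-- T5 -/
theorem TensGram.swap {f : (ι → F) → (ι → F) → F} {a b : ℕ} {e : ι ≃ Fin a × Fin b} {P : GL ι F}
    {G₁ : Matrix (Fin a) (Fin a) F} {G₂ : Matrix (Fin b) (Fin b) F} (h : TensGram f e P G₁ G₂) :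
    TensGram f (e.trans (Equiv.prodComm _ _)) P G₂ G₁ := by
  intro x y
  have h1 := h (x ∘ Equiv.prodComm _ _) (y ∘ Equiv.prodComm _ _)
  have e1 : x ∘ (e.trans (Equiv.prodComm _ _)) = (x ∘ Equiv.prodComm _ _) ∘ e := rfl
  have e2 : y ∘ (e.trans (Equiv.prodComm _ _)) = (y ∘ Equiv.prodComm _ _) ∘ e := rfl
  rw [e1, e2, h1]
  unfold formOfGram
  rw [← Equiv.sum_comp (Equiv.prodComm (Fin a) (Fin b))]
  refine Finset.sum_congr rfl fun p _ => ?_
  rw [← Equiv.sum_comp (Equiv.prodComm (Fin a) (Fin b))]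
  refine Finset.sum_congr rfl fun q _ => ?_
  simp only [Function.comp_apply, Matrix.kroneckerMap_apply, Equiv.prodComm_apply, Prod.fst_swap,
    Prod.snd_swap, id]
  ring

end Cfsg.Agent.Lib.Helper65.Sp
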