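import Cfsg.Agent.Lib.Helper90.Sp.Defs

set_option autoImplicit false

namespace Cfsg.Agent.Lib.Helper65.Sp

open Cfsg Cfsg.Geo Matrix Cfsg.Agent.Lib.Helper13.Asch Cfsg.Agent.Lib.Helper90.Sp
open scoped Kronecker MatrixGroups

variable {ι : Type} [Fintype ι] [DecidableEq ι] {F : Type*} [Field F]

/-- SE4 -/
theorem hasQuad_of_unitary_field (h2 : (2 : F) = 0) {f : (ι → F) → (ι → F) → F}
    (hf : IsSymplecticForm f) {H : Subgroup (GL ι F)} (hH : FixesForm (matrixSet H) f)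
    (K : Subalgebra F (Matrix ι ι F)) (hK : IsFieldSubalgebra 2 K)
    (hHK : H ≤ subalgebraNormalizer K) (hadj : IsAdjointClosedFor f K)
    (hnsa : ¬ IsSelfAdjointFor f K)
    (hfix : ∀ k ∈ K, (∀ u v, f (k *ᵥ u) v = f u (k *ᵥ v)) → ∃ c : F, k = c • 1) :
    HasQuad f H := by
  have hb := hf.bilinear
  have hneg : ∀ t : F, -t = t := fun t => by linear_combination (-t) * h2
  have hsymm : ∀ u v, f u v = f v u := fun u v => by rw [hf.skew u v, hneg]
  -- a non self-adjoint element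
  unfold IsSelfAdjointFor at hnsa
  push Not at hnsa
  obtain ⟨x, hxK, u₀, v₀, hx⟩ := hnsa
  obtain ⟨x', hx'K, hxx'⟩ := hadj x hxK
  have hx'x : ∀ u v, f (x' *ᵥ u) v = f u (x *ᵥ v) := fun u v => by
    rw [hsymm (x' *ᵥ u) v, ← hxx' v u, hsymm]
  obtain ⟨c, hc⟩ := hfix (x + x') (K.add_mem hxK hx'K) (fun u v => by
    rw [Matrix.add_mulVec, Matrix.add_mulVec, hb.add_left, hb.add_right, hxx', hx'x, add_comm])
  have hc0 : c ≠ 0 := by
    rintro rfl
    rw [zero_smul] at hc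
    apply hx
    have hv : x' *ᵥ v₀ = -(x *ᵥ v₀) := by
      have : (x + x') *ᵥ v₀ = 0 := by rw [hc, Matrix.zero_mulVec]
      rw [Matrix.add_mulVec] at this
      exact eq_neg_of_add_eq_zero_right this
    rw [hxx', hv]
    have : -(x *ᵥ v₀) = (-1 : F) • (x *ᵥ v₀) := by simp
    rw [this, hb.smul_right, hneg, one_mul]
  -- normalise
  set ω : Matrix ι ι F := c⁻¹ • x with hω
  set ω' : Matrix ι ι F := c⁻¹ • x' with hω'
  have hωK : ω ∈ K := K.smul_mem hxK _
  have hsum : ω + ω' = 1 := by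
    rw [hω, hω', ← smul_add, hc, smul_smul, inv_mul_cancel₀ hc0, one_smul]
  have hadjω : ∀ u v, f (ω *ᵥ u) v = f u (ω' *ᵥ v) := fun u v => by
    rw [hω, hω', Matrix.smul_mulVec, Matrix.smul_mulVec, hb.smul_left, hb.smul_right, hxx']
  -- general principle : an element of `K` whose adjoint is its complement differs from `ω` by a scalar
  have hright : ∀ (m m' : Matrix ι ι F), m + m' = 1 → ∀ u v, f u (m' *ᵥ v) = f u v - f u (m *ᵥ v) := by
    intro m m' hm u v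
    have : f u ((m + m') *ᵥ v) = f u v := by rw [hm, Matrix.one_mulVec]
    rw [Matrix.add_mulVec, hb.add_right] at this
    linear_combination this
  have hpolar : ∀ u v, QuadraticMap.polar (fun v => f (ω *ᵥ v) v) u v = f u v := by
    intro u v
    simp only [QuadraticMap.polar]
    rw [Matrix.mulVec_add, hb.add_left, hb.add_right, hb.add_right]
    have e1 : f (ω *ᵥ v) u = f u v - f (ω *ᵥ u) v := by
      rw [hadjω v u, hright ω ω' hsum, hsymm v u, hsymm v (ω *ᵥ u)]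
    rw [e1]
    ring
  have hpf : QuadraticMap.polar (fun v => f (ω *ᵥ v) v) = f := by
    funext u v; exact hpolar u v
  refine ⟨fun v => f (ω *ᵥ v) v, ⟨?_, ?_, ?_⟩, hpolar, ?_⟩
  · intro a v
    rw [Matrix.mulVec_smul, hb.smul_left, hb.smul_right]
    ring
  · rw [hpf]; exact hb
  · rw [hpf]; exact hf.nondegenerate
  · rintro _ ⟨h, hh, rfl⟩ v
    set hm : Matrix ι ι F := (h : Matrix ι ι F) with hhm
    set hi : Matrix ι ι F := ((h⁻¹ : GL ι F) : Matrix ι ι F) with hhi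
    have him : hi * hm = 1 := by rw [hhi, hhm, ← Units.val_mul, inv_mul_cancel, Units.val_one]
    have hmi : hm * hi = 1 := by rw [hhi, hhm, ← Units.val_mul, mul_inv_cancel, Units.val_one]
    have hiso : ∀ u v, f (hm *ᵥ u) (hm *ᵥ v) = f u v := hH hm ⟨h, hh, rfl⟩
    set ω₁ : Matrix ι ι F := hi * ω * hm with hω₁
    set ω₁' : Matrix ι ι F := hi * ω' * hm with hω₁'
    have hω₁K : ω₁ ∈ K := by
      have := ((subalgebraNormalizer K).inv_mem (hHK hh)) ω
      rw [inv_inv] at this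
      exact this.mp hωK
    have hsum₁ : ω₁ + ω₁' = 1 := by
      rw [hω₁, hω₁', ← add_mul, ← mul_add, hsum, mul_one, him]
    have hmω₁ : hm * ω₁ = ω * hm := by
      rw [hω₁, ← mul_assoc, ← mul_assoc, hmi, one_mul]
    have hmω₁' : hm * ω₁' = ω' * hm := by
      rw [hω₁', ← mul_assoc, ← mul_assoc, hmi, one_mul]
    have hadj₁ : ∀ u v, f (ω₁ *ᵥ u) v = f u (ω₁' *ᵥ v) := fun u v => by
      rw [← hiso (ω₁ *ᵥ u) v, Matrix.mulVec_mulVec, hmω₁, ← Matrix.mulVec_mulVec, hadjω,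
        Matrix.mulVec_mulVec, ← hmω₁', ← Matrix.mulVec_mulVec, hiso]
    obtain ⟨d, hd⟩ := hfix (ω₁ + ω) (K.add_mem hω₁K hωK) (fun u v => by
      rw [Matrix.add_mulVec, Matrix.add_mulVec, hb.add_left, hb.add_right, hadj₁, hadjω,
        hright ω₁ ω₁' hsum₁, hright ω ω' hsum]
      linear_combination (f u v - f u (ω₁ *ᵥ v) - f u (ω *ᵥ v)) * h2)
    have e1 : f (ω *ᵥ (hm *ᵥ v)) (hm *ᵥ v) = f (ω₁ *ᵥ v) v := by
      rw [Matrix.mulVec_mulVec, ← hmω₁, ← Matrix.mulVec_mulVec, hiso]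
    show f (ω *ᵥ (hm *ᵥ v)) (hm *ᵥ v) = f (ω *ᵥ v) v
    rw [e1]
    have e2 : f ((ω₁ + ω) *ᵥ v) v = 0 := by
      rw [hd, Matrix.smul_mulVec, Matrix.one_mulVec, hb.smul_left, hf.alternating, mul_zero]
    rw [Matrix.add_mulVec, hb.add_left] at e2
    linear_combination e2 - (f (ω *ᵥ v) v) * h2

end Cfsg.Agent.Lib.Helper65.Sp
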