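import Cfsg.Agent.Lib.Helper65.Sp.TensTools
import Cfsg.Agent.Lib.Helper99.Sp.T1

set_option autoImplicit false

namespace Cfsg.Agent.Lib.Helper65.Sp

open Cfsg Cfsg.Geo Matrix Cfsg.Agent.Lib.Helper13.Asch Cfsg.Agent.Lib.Helper90.Sp
open scoped Kronecker MatrixGroups

variable {ι : Type} [Fintype ι] [DecidableEq ι] {F : Type*} [Field F]

/-- T4b -/
theorem hasQuad_of_alternating_tensor [Nonempty ι] (h2 : (2 : F) = 0) {f : (ι → F) → (ι → F) → F}
    (hf : IsSymplecticForm f) {H : Subgroup (GL ι F)} (hH : FixesForm (matrixSet H) f) {a b : ℕ}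
    (e : ι ≃ Fin a × Fin b) (P : GL ι F) {G₁ : Matrix (Fin a) (Fin a) F}
    {G₂ : Matrix (Fin b) (Fin b) F} (hG : TensGram f e P G₁ G₂) (h1 : IsUnit G₁.det)
    (h2' : IsUnit G₂.det) (hs1 : G₁ᵀ = G₁) (hs2 : G₂ᵀ = G₂) (hd1 : ∀ i, G₁ i i = 0)
    (hd2 : ∀ j, G₂ j j = 0) (hHt : H ≤ tensorProductSubgroup a b e P) : HasQuad f H := by
  -- the upper triangular half of `G₁`
  obtain ⟨T, hTa⟩ : ∃ T : Matrix (Fin a) (Fin a) F, ∀ i k, T i k = if i < k then G₁ i k else 0 :=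
    ⟨fun i k => if i < k then G₁ i k else 0, fun _ _ => rfl⟩
  have hT : T + Tᵀ = G₁ := by
    ext i k
    simp only [Matrix.add_apply, Matrix.transpose_apply, hTa]
    rcases lt_trichotomy i k with h | h | h
    · rw [if_pos h, if_neg (not_lt.mpr h.le), add_zero]
    · subst h; simp [hd1]
    · rw [if_neg (not_lt.mpr h.le), if_pos h, zero_add]
      conv_rhs => rw [← hs1]
      rfl
  let Q : (ι → F) → F := fun v => co e P v ⬝ᵥ ((T ⊗ₖ G₂) *ᵥ co e P v)
  have hpolar : ∀ u v, QuadraticMap.polar Q u v = f u v := by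
    intro u v
    simp only [QuadraticMap.polar, Q]
    rw [co_add, Matrix.mulVec_add, add_dotProduct, dotProduct_add, dotProduct_add, form_co hG,
      ← hT, Matrix.add_kronecker, Matrix.add_mulVec, dotProduct_add,
      dot_transpose (T ⊗ₖ G₂) (co e P u) (co e P v), ← Matrix.kroneckerMap_transpose, hs2]
    ring
  have hpf : QuadraticMap.polar Q = f := by
    funext u v; exact hpolar u v
  refine ⟨Q, ⟨?_, ?_, ?_⟩, hpolar, ?_⟩
  · intro c v
    simp only [Q]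
    rw [co_smul, Matrix.mulVec_smul, smul_dotProduct, dotProduct_smul, smul_eq_mul, smul_eq_mul]
    ring
  · rw [hpf]; exact hf.bilinear
  · rw [hpf]; exact hf.nondegenerate
  · rintro _ ⟨h, hh, rfl⟩ v
    obtain ⟨x, y, c, hxy, hx, hy⟩ := Cfsg.Agent.Lib.Helper99.Sp.tens_similitude e P hG h1 h2' h
      (hHt hh) (hH _ ⟨h, hh, rfl⟩)
    show co e P ((h : Matrix ι ι F) *ᵥ v) ⬝ᵥ ((T ⊗ₖ G₂) *ᵥ co e P ((h : Matrix ι ι F) *ᵥ v)) =
      co e P v ⬝ᵥ ((T ⊗ₖ G₂) *ᵥ co e P v)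
    rw [hxy, co_conj, dot_mulVec_mulVec, ← Matrix.kroneckerMap_transpose, ← Matrix.mul_kronecker_mul,
      ← Matrix.mul_kronecker_mul, hy]
    set X := co e P v with hX
    set xm : Matrix (Fin a) (Fin a) F := (x : Matrix (Fin a) (Fin a) F) with hxm
    -- move the scalar
    have hmove : (xmᵀ * T * xm) ⊗ₖ (((c⁻¹ : Fˣ) : F) • G₂) =
        ((((c⁻¹ : Fˣ) : F) • (xmᵀ * T * xm)) - T) ⊗ₖ G₂ + T ⊗ₖ G₂ := by
      rw [← Matrix.add_kronecker, sub_add_cancel, Matrix.kronecker_smul, Matrix.smul_kronecker]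
    rw [hmove, Matrix.add_mulVec, dotProduct_add]
    have hS : ((((c⁻¹ : Fˣ) : F) • (xmᵀ * T * xm)) - T)ᵀ =
        (((c⁻¹ : Fˣ) : F) • (xmᵀ * T * xm)) - T := by
      have e1 : (((c⁻¹ : Fˣ) : F) • (xmᵀ * T * xm)) + (((c⁻¹ : Fˣ) : F) • (xmᵀ * T * xm))ᵀ = G₁ := by
        rw [Matrix.transpose_smul, Matrix.transpose_mul, Matrix.transpose_mul,
          Matrix.transpose_transpose, ← smul_add, ← mul_assoc, ← add_mul, ← mul_add, hT, hx,
          smul_smul, ← Units.val_mul, inv_mul_cancel, Units.val_one, one_smul]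
      have hneg : ∀ M : Matrix (Fin a) (Fin a) F, -M = M := by
        intro M
        ext i k
        simp only [Matrix.neg_apply]
        linear_combination (-(M i k)) * h2
      rw [Matrix.transpose_sub]
      have e2 : (((c⁻¹ : Fˣ) : F) • (xmᵀ * T * xm))ᵀ = G₁ - (((c⁻¹ : Fˣ) : F) • (xmᵀ * T * xm)) :=
        eq_sub_of_add_eq' e1
      have e3 : Tᵀ = G₁ - T := eq_sub_of_add_eq' hT
      rw [e2, e3]
      have : G₁ - ((c⁻¹ : Fˣ) : F) • (xmᵀ * T * xm) - (G₁ - T) =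
          -((((c⁻¹ : Fˣ) : F) • (xmᵀ * T * xm)) - T) := by abel
      rw [this, hneg]
    rw [dot_self_eq_zero h2 _ (by rw [← Matrix.kroneckerMap_transpose, hS, hs2])
      (by rintro ⟨i, j⟩; simp [Matrix.kroneckerMap_apply, hd2]), zero_add]

end Cfsg.Agent.Lib.Helper65.Sp
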