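import Cfsg.Agent.Lib.Helper90.Sp.Defs

set_option autoImplicit false

/-! # Coordinates for a tensor structure, and the algebra of `formOfGram id` -/

namespace Cfsg.Agent.Lib.Helper65.Sp

open Cfsg Cfsg.Geo Matrix Cfsg.Agent.Lib.Helper13.Asch Cfsg.Agent.Lib.Helper90.Sp
open scoped Kronecker MatrixGroups

variable {ι : Type} [Fintype ι] [DecidableEq ι] {F : Type*} [Field F]

theorem formOfGram_eq {κ : Type} [Fintype κ] (M : Matrix κ κ F) (x y : κ → F) :
    formOfGram id M x y = x ⬝ᵥ (M *ᵥ y) := by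
  simp only [formOfGram, dotProduct, mulVec, id, Finset.mul_sum, mul_assoc]

/-- the coordinates of a vector -/
def co {a b : ℕ} (e : ι ≃ Fin a × Fin b) (P : GL ι F) (v : ι → F) : Fin a × Fin b → F :=
  (((P⁻¹ : GL ι F) : Matrix ι ι F) *ᵥ v) ∘ e.symm

theorem co_add {a b : ℕ} (e : ι ≃ Fin a × Fin b) (P : GL ι F) (u v : ι → F) :
    co e P (u + v) = co e P u + co e P v := by
  unfold co; rw [Matrix.mulVec_add]; rfl

theorem co_smul {a b : ℕ} (e : ι ≃ Fin a × Fin b) (P : GL ι F) (c : F) (v : ι → F) :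
    co e P (c • v) = c • co e P v := by
  unfold co; rw [Matrix.mulVec_smul]; rfl

theorem mulVec_co {a b : ℕ} (e : ι ≃ Fin a × Fin b) (P : GL ι F) (v : ι → F) :
    (P : Matrix ι ι F) *ᵥ (co e P v ∘ e) = v := by
  have : co e P v ∘ e = ((P⁻¹ : GL ι F) : Matrix ι ι F) *ᵥ v := by
    ext i; simp [co]
  rw [this, Matrix.mulVec_mulVec, ← Units.val_mul, mul_inv_cancel, Units.val_one,
    Matrix.one_mulVec]

theorem co_mulVec_comp {a b : ℕ} (e : ι ≃ Fin a × Fin b) (P : GL ι F) (x : Fin a × Fin b → F) :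
    co e P ((P : Matrix ι ι F) *ᵥ (x ∘ e)) = x := by
  unfold co
  rw [Matrix.mulVec_mulVec, ← Units.val_mul, inv_mul_cancel, Units.val_one, Matrix.one_mulVec]
  ext p; simp

theorem co_conj {a b : ℕ} (e : ι ≃ Fin a × Fin b) (P : GL ι F)
    (K : Matrix (Fin a × Fin b) (Fin a × Fin b) F) (v : ι → F) :
    co e P (((P : Matrix ι ι F) * Matrix.reindex e.symm e.symm K *
      ((P⁻¹ : GL ι F) : Matrix ι ι F)) *ᵥ v) = K *ᵥ co e P v := by
  unfold co
  rw [Matrix.mulVec_mulVec, ← mul_assoc, ← mul_assoc, ← Units.val_mul, inv_mul_cancel,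
    Units.val_one, one_mul, ← Matrix.mulVec_mulVec, Matrix.reindex_apply,
    Matrix.submatrix_mulVec_equiv]
  ext p; simp

theorem form_co {f : (ι → F) → (ι → F) → F} {a b : ℕ} {e : ι ≃ Fin a × Fin b} {P : GL ι F}
    {G₁ : Matrix (Fin a) (Fin a) F} {G₂ : Matrix (Fin b) (Fin b) F} (hG : TensGram f e P G₁ G₂)
    (u v : ι → F) : f u v = co e P u ⬝ᵥ ((G₁ ⊗ₖ G₂) *ᵥ co e P v) := by
  rw [← formOfGram_eq, ← hG, mulVec_co, mulVec_co]

theorem dot_mulVec_mulVec {κ : Type} [Fintype κ] (M K : Matrix κ κ F) (x y : κ → F) :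
    (K *ᵥ x) ⬝ᵥ (M *ᵥ (K *ᵥ y)) = x ⬝ᵥ ((Kᵀ * M * K) *ᵥ y) := by
  rw [← Matrix.mulVec_mulVec, ← Matrix.mulVec_mulVec, Matrix.dotProduct_mulVec x Kᵀ,
    Matrix.vecMul_transpose]

theorem dot_transpose {κ : Type} [Fintype κ] (M : Matrix κ κ F) (x y : κ → F) :
    y ⬝ᵥ (M *ᵥ x) = x ⬝ᵥ (Mᵀ *ᵥ y) := by
  rw [Matrix.mulVec_transpose, dotProduct_comm x, Matrix.dotProduct_mulVec]

/-- in characteristic two a symmetric matrix with zero diagonal gives an alternating form -/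
theorem dot_self_eq_zero {κ : Type} [Fintype κ] [DecidableEq κ] (h2 : (2 : F) = 0)
    (M : Matrix κ κ F) (hs : Mᵀ = M) (hd : ∀ p, M p p = 0) (x : κ → F) :
    x ⬝ᵥ (M *ᵥ x) = 0 := by
  have h : x ⬝ᵥ (M *ᵥ x) = ∑ pq ∈ (Finset.univ : Finset (κ × κ)), x pq.1 * M pq.1 pq.2 * x pq.2 := by
    rw [← Finset.univ_product_univ, Finset.sum_product]
    simp only [dotProduct, mulVec, Finset.mul_sum, mul_assoc]
  rw [h]
  refine Finset.sum_involution (fun pq _ => (pq.2, pq.1)) ?_ ?_ (fun _ _ => Finset.mem_univ _)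
    (fun _ _ => rfl)
  · rintro ⟨p, q⟩ _
    have : M q p = M p q := by
      conv_lhs => rw [← hs]
      rfl
    simp only [this]
    linear_combination (x p * M p q * x q) * h2
  · rintro ⟨p, q⟩ _ hne heq
    simp only [Prod.mk.injEq] at heq
    obtain ⟨rfl, -⟩ := heq
    apply hne
    simp [hd]

end Cfsg.Agent.Lib.Helper65.Sp
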